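import Cfsg.Agent.O7Mult.Model
import Cfsg.Agent.O7Mult.DataThree
import Cfsg.Agent.Schur.MonomialStem
import Cfsg.Agent.Schur.MonomialPrime
import Cfsg.Agent.Schur.MonomialMacro
import Cfsg.Agent.Schur.PrimeCertFast

/-!
The cover of `PΩ₇(3)` with kernel of order 3 as a monomial group on 378 points and its Sylow
certificate for three.
-/

set_option autoImplicit false
set_option maxRecDepth 100000

noncomputable section

namespace CfsgLib.O7Mult

open CfsgLib.CosetEnum CfsgLib.Schur

attribute [local irreducible] threeFwd threeBwd threeMacroWords threeMacroElts threeWords threeElts threeLevels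
  threeCert threeShifts threePairs threeMasks rels

/-- The tables of the cover. -/
def T3 : Monomial.Tables := ⟨378, 3, 9, fun x => threeFwd.getD x 0, fun x => threeBwd.getD x 0⟩

theorem T3_check : Monomial.check T3 = true := by decide +kernel

/-- The cover. -/
abbrev Three : Type := ↥(Monomial.Gam T3_check)

instance finite_Three : Finite Three := Monomial.finite_Gam T3_check

theorem shifts_three :
    MonomialStem.shifts T3_check 8 = Subgroup.zpowers (Monomial.zC T3_check) := by
  rw [Subgroup.zpowers_eq_closure, MonomialStem.shifts]
  refine congrArg Subgroup.closure (Set.ext fun a => ⟨?_, ?_⟩)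
  · rintro ⟨x, h8, h9, rfl⟩
    have hx : x < 9 := h9
    obtain rfl : x = 8 := by omega
    rfl
  · rintro rfl
    exact ⟨8, le_rfl, by decide, rfl⟩

theorem three_rels : MonomialStem.relsOK T3 8 rels threeShifts = true := by decide +kernel

theorem three_small : MonomialStem.centralOK T3 8 = true ∧ MonomialStem.commOK T3 8 threePairs = true ∧
    ((List.range T3.L).all (fun y => decide (y < 8) ||
      (List.range T3.n).all fun i => Monomial.aN T3 y i == i)) = true := by decide +kernel

theorem three_moves : ∃ x < 8, ∃ i < T3.n, Monomial.aN T3 x i ≠ i := by decide +kernel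

theorem exists_three : ∃ σ : Three →* P7, Cfsg.IsStemExtension σ ∧
    σ.ker = Subgroup.zpowers (Monomial.zC T3_check) := by
  haveI : Finite P7 := Nat.finite_of_card_ne_zero (by rw [card_P7]; norm_num)
  obtain ⟨hc, hab, hfix⟩ := three_small
  obtain ⟨σ, hσ, hk⟩ := MonomialStem.exists_stem T3_check 8 genP rels threeShifts threePairs genP_rels
    genP_top genP_bound hc three_rels (by decide) three_moves hfix hab
  exact ⟨σ, hσ, hk.trans shifts_three⟩

theorem card_ker_three {σ : Three →* P7}
    (hk : σ.ker = Subgroup.zpowers (Monomial.zC T3_check)) : Nat.card σ.ker = 3 := by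
  rw [hk, Nat.card_zpowers, Monomial.orderOf_zC]
  rfl

theorem card_Three : Nat.card Three = 3 ^ 10 * 232960 := by
  obtain ⟨σ, hσ, hk⟩ := exists_three
  rw [Subgroup.card_eq_card_quotient_mul_card_subgroup σ.ker,
    Nat.card_congr (QuotientGroup.quotientKerEquivOfSurjective σ hσ.1).toEquiv, card_P7,
    card_ker_three hk]
  norm_num

theorem three_shape : threeCert.p = 3 ∧ threeCert.n = 10 ∧
    decide (threeCert.n ≤ threeWords.length) = true ∧
    MonomialPrime.levelsProd threeLevels = 59049 := by decide +kernel

theorem three_macros : MonomialCert.eltsOK T3 threeMacroWords threeMacroElts = true := by decide +kernel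

theorem three_words : MonomialMacro.macroOK T3 threeMacroWords threeMacroElts threeWords threeElts = true := by
  decide +kernel

theorem three_rules : MonomialPrime.rulesOK T3 threeWords.length threeElts threeCert = true := by
  decide +kernel

theorem three_levels : MonomialPrime.levelsOK T3 threeElts threeCert.n 0 threeLevels = true := by
  decide +kernel

theorem three_fast : PrimeCert.fastOK threeCert threeMasks = true ∧ threeCert.eqs.length = 94 := by
  decide +kernel

theorem three_masks_0 : PrimeCert.masksOK threeCert threeMasks 0 30 = true := by decide +kernel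

theorem three_masks_1 : PrimeCert.masksOK threeCert threeMasks 30 30 = true := by decide +kernel

theorem three_masks_2 : PrimeCert.masksOK threeCert threeMasks 60 17 = true := by decide +kernel

theorem three_masks_3 : PrimeCert.masksOK threeCert threeMasks 77 7 = true := by decide +kernel

theorem three_masks_4 : PrimeCert.masksOK threeCert threeMasks 84 3 = true := by decide +kernel

theorem three_masks_5 : PrimeCert.masksOK threeCert threeMasks 87 2 = true := by decide +kernel

theorem three_masks_6 : PrimeCert.masksOK threeCert threeMasks 89 2 = true := by decide +kernel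

theorem three_masks_7 : PrimeCert.masksOK threeCert threeMasks 91 1 = true := by decide +kernel

theorem three_masks_8 : PrimeCert.masksOK threeCert threeMasks 92 1 = true := by decide +kernel

theorem three_masks_9 : PrimeCert.masksOK threeCert threeMasks 93 1 = true := by decide +kernel

theorem three_cert : PrimeCert.ok threeCert = true := by
  refine PrimeCert.ok_of_fast threeCert three_fast.1 fun i hi => ?_
  rw [three_fast.2] at hi
  have pick : ∀ lo len, PrimeCert.masksOK threeCert threeMasks lo len = true → lo ≤ i → i < lo + len →
      PrimeCert.agree threeCert threeCert.rules.length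
        (PrimeCert.eqMask threeCert (threeCert.eqs.getD i ([], [], []))) (threeMasks.getD i []) = true :=
    fun lo len h hlo hlen => by
      have := List.all_eq_true.1 h (i - lo) (List.mem_range.2 (by omega))
      rwa [show lo + (i - lo) = i by omega] at this
  by_cases h0 : i < 30
  · exact pick 0 30 three_masks_0 (by omega) (by omega)
  by_cases h1 : i < 60
  · exact pick 30 30 three_masks_1 (by omega) (by omega)
  by_cases h2 : i < 77
  · exact pick 60 17 three_masks_2 (by omega) (by omega)
  by_cases h3 : i < 84
  · exact pick 77 7 three_masks_3 (by omega) (by omega)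
  by_cases h4 : i < 87
  · exact pick 84 3 three_masks_4 (by omega) (by omega)
  by_cases h5 : i < 89
  · exact pick 87 2 three_masks_5 (by omega) (by omega)
  by_cases h6 : i < 91
  · exact pick 89 2 three_masks_6 (by omega) (by omega)
  by_cases h7 : i < 92
  · exact pick 91 1 three_masks_7 (by omega) (by omega)
  by_cases h8 : i < 93
  · exact pick 92 1 three_masks_8 (by omega) (by omega)
  exact pick 93 1 three_masks_9 (by omega) (by omega)


theorem not_dvd_three {Δ : Type} [Group Δ] [Finite Δ] (σ : Δ →* Three)
    (hσ : Cfsg.IsStemExtension σ) : ¬ 3 ∣ Nat.card σ.ker := by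
  obtain ⟨hp, hn, hl, hprod⟩ := three_shape
  have hlen : (MonomialMacro.expand threeMacroWords threeWords).length = threeWords.length :=
    List.length_map _
  have h := MonomialPrime.not_dvd T3_check (MonomialMacro.expand threeMacroWords threeWords) threeElts
    threeCert (by rw [hp]; exact Nat.prime_three) threeLevels
    (MonomialMacro.eltsOK_expand T3 T3_check _ _ _ _ three_macros three_words) three_cert
    (by rw [hlen]; exact three_rules) (by rw [hlen]; exact of_decide_eq_true hl) three_levels
    (by rw [hp, hn, hprod]; norm_num) (m := 232960) (by rw [hp]; norm_num)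
    (by rw [hp, hn]; exact card_Three) σ hσ
  rwa [hp] at h

end CfsgLib.O7Mult
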