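import Cfsg.Agent.O7Mult.Two
import Cfsg.Agent.O7Mult.Three
import Cfsg.Agent.Schur.CoverBound
import Cfsg.Agent.Schur.PrimePart
import Cfsg.Agent.Schur.StemSylow

/-!
The Schur multiplier of `PΩ₇(3)` is cyclic of order six.
-/

set_option autoImplicit false

noncomputable section

namespace CfsgLib.O7Mult

open CfsgLib.Schur
open scoped commutatorElement

instance finite_P7 : Finite P7 := Nat.finite_of_card_ne_zero (by rw [card_P7]; norm_num)

theorem perfect_P7 : commutator P7 = ⊤ := by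
  refine (Subgroup.Normal.eq_bot_or_eq_top (inferInstance : (commutator P7).Normal)).resolve_left
    fun hbot => ?_
  haveI : Fact (Nat.Prime 2) := ⟨Nat.prime_two⟩
  have hab : ∀ a b : P7, a * b = b * a := fun a b => by
    have h : ⁅a, b⁆ ∈ commutator P7 :=
      Subgroup.commutator_mem_commutator (Subgroup.mem_top _) (Subgroup.mem_top _)
    rw [hbot, Subgroup.mem_bot, commutatorElement_eq_one_iff_mul_comm] at h
    exact h
  obtain ⟨x, hx⟩ := exists_prime_orderOf_dvd_card' (G := P7) 2 (by rw [card_P7]; norm_num)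
  haveI : (Subgroup.zpowers x).Normal :=
    ⟨fun n hn g => by rw [hab g n, mul_inv_cancel_right]; exact hn⟩
  rcases Subgroup.Normal.eq_bot_or_eq_top (inferInstance : (Subgroup.zpowers x).Normal) with h | h
  · rw [Subgroup.zpowers_eq_bot] at h
    rw [h, orderOf_one] at hx
    omega
  · have := congrArg (fun H : Subgroup P7 => Nat.card H) h
    simp only [Nat.card_zpowers, hx, Subgroup.card_top, card_P7] at this
    omega

theorem not_sq_dvd_order {p : ℕ} (hp : p.Prime) (h2 : p ≠ 2) (h3 : p ≠ 3) :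
    ¬ p ^ 2 ∣ 4585351680 := by
  intro hd
  have hc : (p ^ 2).Coprime (2 ^ 9 * 3 ^ 9) :=
    Nat.Coprime.pow_left _ <|
      (((Nat.coprime_primes hp Nat.prime_two).2 h2).pow_right _).mul_right
        (((Nat.coprime_primes hp Nat.prime_three).2 h3).pow_right _)
  rw [show 4585351680 = 2 ^ 9 * 3 ^ 9 * 455 by norm_num] at hd
  have hd' : p ^ 2 ∣ 455 := hc.dvd_of_dvd_mul_left hd
  have hle := Nat.le_of_dvd (by norm_num) hd'
  have := hp.two_le
  have hlt : p < 22 := by nlinarith
  interval_cases p <;> first | omega | norm_num at hd' | norm_num at hp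

theorem not_dvd_other {Δ : Type} [Group Δ] [Finite Δ] {τ : Δ →* P7} (hτ : Cfsg.IsStemExtension τ)
    {p : ℕ} (hp : p.Prime) (h2 : p ≠ 2) (h3 : p ≠ 3) : ¬ p ∣ Nat.card τ.ker := by
  haveI := Fact.mk hp
  by_cases hd : p ∣ Nat.card P7
  · obtain ⟨x, hx⟩ := exists_prime_orderOf_dvd_card' p hd
    refine Schur.not_dvd_card_ker_of_isCyclic hτ (Subgroup.zpowers x) fun hi => ?_
    have h := (Subgroup.zpowers x).card_mul_index
    rw [Nat.card_zpowers, hx, card_P7] at h
    refine not_sq_dvd_order hp h2 h3 ?_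
    rw [← h, pow_two]
    exact Nat.mul_dvd_mul_left p hi
  · refine Schur.not_dvd_card_ker_of_isCyclic hτ ⊥ ?_
    rwa [Subgroup.index_bot]

/-- The Schur multiplier of `PΩ₇(3)`. -/
theorem hasSchurMultiplier_P7 : Cfsg.HasCyclicSchurMultiplier P7 6 := by
  obtain ⟨σ2, hσ2, hk2⟩ := exists_two
  obtain ⟨σ3, hσ3, hk3⟩ := exists_three
  refine PrimePart.hasCyclic_six
    ⟨Two, inferInstance, inferInstance, σ2, hσ2, card_ker_two hk2⟩
    ⟨Three, inferInstance, inferInstance, σ3, hσ3, card_ker_three hk3⟩ fun Δ _ _ τ hτ => ?_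
  have h4 : ¬ 2 ^ 2 ∣ Nat.card τ.ker := by
    haveI : Fact (Nat.Prime 2) := ⟨Nat.prime_two⟩
    exact CoverBound.not_pow_dvd perfect_P7 hσ2 (fun σ hσ => not_dvd_two σ hσ)
      (by rw [card_ker_two hk2]; norm_num) hτ
  have h9 : ¬ 3 ^ 2 ∣ Nat.card τ.ker := by
    haveI : Fact (Nat.Prime 3) := ⟨Nat.prime_three⟩
    exact CoverBound.not_pow_dvd perfect_P7 hσ3 (fun σ hσ => not_dvd_three σ hσ)
      (by rw [card_ker_three hk3]; norm_num) hτ
  exact PrimePart.dvd_six Nat.card_pos.ne' (fun p hp h2 h3 => not_dvd_other hτ hp h2 h3)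
    (by norm_num at h4; exact h4) (by norm_num at h9; exact h9)

end CfsgLib.O7Mult
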