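import Cfsg.Agent.CosetEnum.Fi22.O7Iso.Iso

/-!
Eight involutions generating `PΩ₇(3)` with relators, indexed from 0 to 7.
-/

set_option autoImplicit false
set_option maxRecDepth 100000

noncomputable section

namespace CfsgLib.O7Mult

open CfsgLib.CosetEnum
open CfsgLib.CosetEnum.Fi22 (L8 vsub EightRels)

/-- The simple group. -/
abbrev P7 : Type := Cfsg.POmega (ZMod 3) (Cfsg.quadFormOdd 3 (ZMod 3))

/-- The number of a letter. -/
def idx (x : ℕ) : ℕ := if x < 6 then x else x - 1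

/-- The relators in the eight letters, renumbered. -/
def rels : List (List ℕ) :=
  (Fi22.Tab.relWords.filter fun w => w.all fun x => L8.contains x).map fun w => w.map idx

/-- The generators. -/
def genP (k : ℕ) : P7 := Fi22.O7Iso.toP (L8.getD k 0)

theorem L8_idx : ∀ x ∈ L8, idx x < 8 ∧ L8.getD (idx x) 0 = x := by decide

theorem L8_get : ∀ k < 8, L8.getD k 0 ∈ L8 ∧ idx (L8.getD k 0) = k := by decide

theorem mem_rels {w : List ℕ} (hw : w ∈ rels) :
    ∃ u ∈ Fi22.Tab.relWords, (∀ x ∈ u, x ∈ L8) ∧ u.map idx = w := by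
  obtain ⟨u, hu, rfl⟩ := List.mem_map.1 hw
  rw [List.mem_filter] at hu
  exact ⟨u, hu.1, fun x hx => List.contains_iff_mem.1 (List.all_eq_true.1 hu.2 x hx), rfl⟩

theorem genP_rels : ∀ w ∈ rels, gword genP w = 1 := by
  intro w hw
  obtain ⟨u, hu, hx, rfl⟩ := mem_rels hw
  rw [← Fi22.O7Iso.eightRels_toP.rel u hu hx]
  simp only [gword, List.map_map]
  refine congrArg List.prod (List.map_congr_left fun x hxu => ?_)
  show Fi22.O7Iso.toP (L8.getD (idx x) 0) = _
  rw [(L8_idx x (hx x hxu)).2]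

theorem genP_top : Subgroup.closure {a : P7 | ∃ k < 8, genP k = a} = ⊤ := by
  rw [← Fi22.O7Iso.vsub_toP, vsub]
  refine congrArg Subgroup.closure (Set.ext fun z => ?_)
  constructor
  · rintro ⟨k, hk, rfl⟩; exact ⟨_, (L8_get k hk).1, rfl⟩
  · rintro ⟨x, hx, rfl⟩
    exact ⟨idx x, (L8_idx x hx).1, by rw [genP, (L8_idx x hx).2]⟩

theorem card_P7 : Nat.card P7 = 4585351680 := Fi22.O7Iso.card_pomega

instance simple_P7 : IsSimpleGroup P7 := Fi22.O7Iso.simple_pomega

theorem genP_bound (Q : Type) [Group Q] (v : ℕ → Q) (hv : ∀ w ∈ rels, gword v w = 1) :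
    Nat.card (Subgroup.closure {a | ∃ k < 8, v k = a}) ≤ Nat.card P7 ∧
      Nat.card (Subgroup.closure {a | ∃ k < 8, v k = a}) ≠ 0 := by
  have h8 : EightRels fun x => v (idx x) := ⟨fun w hw hx => by
    have hm : w.map idx ∈ rels := List.mem_map.2
      ⟨w, List.mem_filter.2 ⟨hw, List.all_eq_true.2 fun x hxw => List.contains_iff_mem.2 (hx x hxw)⟩,
        rfl⟩
    rw [← hv _ hm]
    simp [gword, List.map_map, Function.comp_def]⟩
  have hs : vsub (fun x => v (idx x)) L8 = Subgroup.closure {a | ∃ k < 8, v k = a} := by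
    rw [vsub]
    refine congrArg Subgroup.closure (Set.ext fun z => ?_)
    constructor
    · rintro ⟨x, hx, rfl⟩; exact ⟨idx x, (L8_idx x hx).1, rfl⟩
    · rintro ⟨k, hk, rfl⟩
      exact ⟨L8.getD k 0, (L8_get k hk).1, congrArg v (L8_get k hk).2⟩
  rw [← hs, card_P7]
  exact h8.card_le

end CfsgLib.O7Mult
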