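import Cfsg.Agent.Eq.Def_Classical

/-!
`PΩ` of the standard odd-dimensional form along an isomorphism of fields.
-/

set_option autoImplicit false

namespace CfsgLib.O7Mult.Transport

open Cfsg
open scoped Matrix MatrixGroups

variable {F K : Type*} [Field F] [Field K] (σ : K ≃+* F)

/-- Invertible matrices over isomorphic fields. -/
noncomputable def glMap (ι : Type) [Fintype ι] [DecidableEq ι] : GL ι K ≃* GL ι F :=
  Units.mapEquiv σ.mapMatrix.toMulEquiv

theorem coe_glMap {ι : Type} [Fintype ι] [DecidableEq ι] (g : GL ι K) :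
    ((glMap σ ι g : GL ι F) : Matrix ι ι F) = (g : Matrix ι ι K).map σ := rfl

theorem glMap_mem_iff (m : ℕ) (g : GL (Unit ⊕ (Fin m ⊕ Fin m)) K) :
    glMap σ _ g ∈ isometryGroup F (quadFormOdd m F) ↔ g ∈ isometryGroup K (quadFormOdd m K) := by
  have hq : ∀ v : Unit ⊕ (Fin m ⊕ Fin m) → K,
      quadFormOdd m F (fun i => σ (v i)) = σ (quadFormOdd m K v) :=
    fun v => by simp [quadFormOdd, map_sum, map_mul, map_pow, map_add]
  have hm : ∀ v : Unit ⊕ (Fin m ⊕ Fin m) → K,
      ((glMap σ _ g : GL (Unit ⊕ (Fin m ⊕ Fin m)) F) : Matrix (Unit ⊕ (Fin m ⊕ Fin m)) (Unit ⊕ (Fin m ⊕ Fin m)) F) *ᵥ (fun i => σ (v i)) =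
      fun i => σ (((g : Matrix (Unit ⊕ (Fin m ⊕ Fin m)) (Unit ⊕ (Fin m ⊕ Fin m)) K) *ᵥ v) i) := fun v => by
    funext i
    simp [coe_glMap, Matrix.mulVec, dotProduct, map_sum, map_mul]
  constructor
  · intro h u w
    have := h (fun i => σ (u i)) (fun i => σ (w i))
    change quadFormOdd m F (((glMap σ _ g : GL (Unit ⊕ (Fin m ⊕ Fin m)) F) : Matrix (Unit ⊕ (Fin m ⊕ Fin m)) (Unit ⊕ (Fin m ⊕ Fin m)) F) *ᵥ _) = _ at this
    rw [hm, hq] at this
    exact σ.injective (this.trans (hq u))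
  · intro h u w
    obtain ⟨v, rfl⟩ : ∃ v : Unit ⊕ (Fin m ⊕ Fin m) → K, (fun i => σ (v i)) = u :=
      ⟨fun i => σ.symm (u i), funext fun i => σ.apply_symm_apply _⟩
    show quadFormOdd m F (((glMap σ _ g : GL (Unit ⊕ (Fin m ⊕ Fin m)) F) : Matrix (Unit ⊕ (Fin m ⊕ Fin m)) (Unit ⊕ (Fin m ⊕ Fin m)) F) *ᵥ _) = _
    rw [hm, hq]
    exact (congrArg σ (h v v)).trans (hq v).symm

/-- The isometry groups over isomorphic fields. -/
noncomputable def isoMap (m : ℕ) :
    isometryGroup K (quadFormOdd m K) ≃* isometryGroup F (quadFormOdd m F) where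
  toFun g := ⟨glMap σ _ g.1, (glMap_mem_iff σ m _).2 g.2⟩
  invFun g := ⟨(glMap σ _).symm g.1, (glMap_mem_iff σ m _).1 (by rw [MulEquiv.apply_symm_apply]; exact g.2)⟩
  left_inv g := Subtype.ext ((glMap σ _).symm_apply_apply g.1)
  right_inv g := Subtype.ext ((glMap σ _).apply_symm_apply g.1)
  map_mul' g h := Subtype.ext (map_mul (glMap σ _) g.1 h.1)

theorem map_omega (m : ℕ) :
    (Omega K (quadFormOdd m K)).map (isoMap σ m).toMonoidHom = Omega F (quadFormOdd m F) := by
  show (commutator _).map _ = commutator _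
  rw [commutator_def, Subgroup.map_commutator, ← MonoidHom.range_eq_map,
    MonoidHom.range_eq_top.2 (isoMap σ m).surjective]
  rfl

theorem map_center {A B : Type*} [Group A] [Group B] (f : A ≃* B) :
    (Subgroup.center A).map f.toMonoidHom = Subgroup.center B := by
  ext x
  refine (Subgroup.mem_map_equiv (f := f) (x := x)).trans ?_
  rw [Subgroup.mem_center_iff, Subgroup.mem_center_iff]
  refine ⟨fun H y => ?_, fun H y => ?_⟩
  · simpa using congrArg f (H (f.symm y))
  · apply f.injective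
    simpa using H (f y)

/-- The projective groups over isomorphic fields. -/
noncomputable def pomegaEquiv (m : ℕ) :
    POmega K (quadFormOdd m K) ≃* POmega F (quadFormOdd m F) :=
  QuotientGroup.congr _ _
    (((isoMap σ m).subgroupMap _).trans (MulEquiv.subgroupCongr (map_omega σ m))) (map_center _)

end CfsgLib.O7Mult.Transport
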