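import Cfsg.Agent.O7Mult.Model
import Cfsg.Agent.O7Mult.DataTwo
import Cfsg.Agent.Schur.MonomialStem
import Cfsg.Agent.Schur.MonomialPrime
import Cfsg.Agent.Schur.MonomialMacro
import Cfsg.Agent.Schur.PrimeCertFast

/-!
The cover of `PΩ₇(3)` with kernel of order 2 as a monomial group on 1080 points and its Sylow
certificate for two.
-/

set_option autoImplicit false
set_option maxRecDepth 100000

noncomputable section

namespace CfsgLib.O7Mult

open CfsgLib.CosetEnum CfsgLib.Schur

attribute [local irreducible] twoFwd twoBwd twoMacroWords twoMacroElts twoWords twoElts twoLevels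
  twoCert twoShifts twoPairs twoMasks rels

/-- The tables of the cover. -/
def T2 : Monomial.Tables := ⟨1080, 2, 9, fun x => twoFwd.getD x 0, fun x => twoBwd.getD x 0⟩

theorem T2_check : Monomial.check T2 = true := by decide +kernel

/-- The cover. -/
abbrev Two : Type := ↥(Monomial.Gam T2_check)

instance finite_Two : Finite Two := Monomial.finite_Gam T2_check

theorem shifts_two :
    MonomialStem.shifts T2_check 8 = Subgroup.zpowers (Monomial.zC T2_check) := by
  rw [Subgroup.zpowers_eq_closure, MonomialStem.shifts]
  refine congrArg Subgroup.closure (Set.ext fun a => ⟨?_, ?_⟩)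
  · rintro ⟨x, h8, h9, rfl⟩
    have hx : x < 9 := h9
    obtain rfl : x = 8 := by omega
    rfl
  · rintro rfl
    exact ⟨8, le_rfl, by decide, rfl⟩

theorem two_rels : MonomialStem.relsOK T2 8 rels twoShifts = true := by decide +kernel

theorem two_small : MonomialStem.centralOK T2 8 = true ∧ MonomialStem.commOK T2 8 twoPairs = true ∧
    ((List.range T2.L).all (fun y => decide (y < 8) ||
      (List.range T2.n).all fun i => Monomial.aN T2 y i == i)) = true := by decide +kernel

theorem two_moves : ∃ x < 8, ∃ i < T2.n, Monomial.aN T2 x i ≠ i := by decide +kernel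

theorem exists_two : ∃ σ : Two →* P7, Cfsg.IsStemExtension σ ∧
    σ.ker = Subgroup.zpowers (Monomial.zC T2_check) := by
  haveI : Finite P7 := Nat.finite_of_card_ne_zero (by rw [card_P7]; norm_num)
  obtain ⟨hc, hab, hfix⟩ := two_small
  obtain ⟨σ, hσ, hk⟩ := MonomialStem.exists_stem T2_check 8 genP rels twoShifts twoPairs genP_rels
    genP_top genP_bound hc two_rels (by decide) two_moves hfix hab
  exact ⟨σ, hσ, hk.trans shifts_two⟩

theorem card_ker_two {σ : Two →* P7}
    (hk : σ.ker = Subgroup.zpowers (Monomial.zC T2_check)) : Nat.card σ.ker = 2 := by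
  rw [hk, Nat.card_zpowers, Monomial.orderOf_zC]
  rfl

theorem card_Two : Nat.card Two = 2 ^ 10 * 8955765 := by
  obtain ⟨σ, hσ, hk⟩ := exists_two
  rw [Subgroup.card_eq_card_quotient_mul_card_subgroup σ.ker,
    Nat.card_congr (QuotientGroup.quotientKerEquivOfSurjective σ hσ.1).toEquiv, card_P7,
    card_ker_two hk]
  norm_num

theorem two_shape : twoCert.p = 2 ∧ twoCert.n = 10 ∧
    decide (twoCert.n ≤ twoWords.length) = true ∧
    MonomialPrime.levelsProd twoLevels = 1024 := by decide +kernel

theorem two_macros : MonomialCert.eltsOK T2 twoMacroWords twoMacroElts = true := by decide +kernel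

theorem two_words : MonomialMacro.macroOK T2 twoMacroWords twoMacroElts twoWords twoElts = true := by
  decide +kernel

theorem two_rules : MonomialPrime.rulesOK T2 twoWords.length twoElts twoCert = true := by
  decide +kernel

theorem two_levels : MonomialPrime.levelsOK T2 twoElts twoCert.n 0 twoLevels = true := by
  decide +kernel

theorem two_fast : PrimeCert.fastOK twoCert twoMasks = true ∧ twoCert.eqs.length = 89 := by
  decide +kernel

theorem two_masks_0 : PrimeCert.masksOK twoCert twoMasks 0 30 = true := by decide +kernel

theorem two_masks_1 : PrimeCert.masksOK twoCert twoMasks 30 30 = true := by decide +kernel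

theorem two_masks_2 : PrimeCert.masksOK twoCert twoMasks 60 22 = true := by decide +kernel

theorem two_masks_3 : PrimeCert.masksOK twoCert twoMasks 82 7 = true := by decide +kernel

theorem two_cert : PrimeCert.ok twoCert = true := by
  refine PrimeCert.ok_of_fast twoCert two_fast.1 fun i hi => ?_
  rw [two_fast.2] at hi
  have pick : ∀ lo len, PrimeCert.masksOK twoCert twoMasks lo len = true → lo ≤ i → i < lo + len →
      PrimeCert.agree twoCert twoCert.rules.length
        (PrimeCert.eqMask twoCert (twoCert.eqs.getD i ([], [], []))) (twoMasks.getD i []) = true :=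
    fun lo len h hlo hlen => by
      have := List.all_eq_true.1 h (i - lo) (List.mem_range.2 (by omega))
      rwa [show lo + (i - lo) = i by omega] at this
  by_cases h0 : i < 30
  · exact pick 0 30 two_masks_0 (by omega) (by omega)
  by_cases h1 : i < 60
  · exact pick 30 30 two_masks_1 (by omega) (by omega)
  by_cases h2 : i < 82
  · exact pick 60 22 two_masks_2 (by omega) (by omega)
  exact pick 82 7 two_masks_3 (by omega) (by omega)


theorem not_dvd_two {Δ : Type} [Group Δ] [Finite Δ] (σ : Δ →* Two)
    (hσ : Cfsg.IsStemExtension σ) : ¬ 2 ∣ Nat.card σ.ker := by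
  obtain ⟨hp, hn, hl, hprod⟩ := two_shape
  have hlen : (MonomialMacro.expand twoMacroWords twoWords).length = twoWords.length :=
    List.length_map _
  have h := MonomialPrime.not_dvd T2_check (MonomialMacro.expand twoMacroWords twoWords) twoElts
    twoCert (by rw [hp]; exact Nat.prime_two) twoLevels
    (MonomialMacro.eltsOK_expand T2 T2_check _ _ _ _ two_macros two_words) two_cert
    (by rw [hlen]; exact two_rules) (by rw [hlen]; exact of_decide_eq_true hl) two_levels
    (by rw [hp, hn, hprod]; norm_num) (m := 8955765) (by rw [hp]; norm_num)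
    (by rw [hp, hn]; exact card_Two) σ hσ
  rwa [hp] at h

end CfsgLib.O7Mult
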